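import Mathlib
import Cfsg.Agent.Lib.Helper70.OPar.Defs
import Cfsg.Agent.Lib.Helper37.OHyp.Geom
import Cfsg.Agent.Lib.Helper10.OHyp.Invol
import Cfsg.Agent.Lib.Helper12.OHyp.EBlkOdd
import Cfsg.Agent.Lib.Helper97.OHyp.OddOmega
import Cfsg.Agent.Lib.Helper99.NdGeom
import Cfsg.Agent.Lib.Helper14.Isom

/-!
# OPAR (S5989), package [UNI3]

`d` odd, `m ≡ 3 (mod 4)`: a unipotent element of `Ω⁺_{2d}(q)` of order `p` without invariant
nondegenerate `m`-spaces.
-/

set_option autoImplicit false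
open scoped MatrixGroups
open Matrix

namespace Cfsg.Agent.Lib.Helper24.OPar

open Cfsg.Agent.Lib.Helper23.OHyp Cfsg.Agent.Lib.Helper94 Cfsg.Geo Module

universe u

section core

variable {F : Type u} [Field F] {ι : Type} [Fintype ι] [DecidableEq ι] {Q : (ι → F) → F}

/-- core: `x = 1 + N` an isometry with `N² = 0` and `dim ker N ≤ dim im N + 2`; every invariant
nondegenerate subspace of odd dimension `m` has `m ≡ 1 (mod 4)`. -/
theorem uni3_core (hQ : IsNondegenerateQuadraticForm Q) (h2 : (2 : F) ≠ 0)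
    (N : Matrix ι ι F) (hNN : N * N = 0) (hisom : ∀ v, Q ((1 + N) *ᵥ v) = Q v)
    (hker : finrank F (LinearMap.ker (Matrix.toLin' N)) ≤
      finrank F (LinearMap.range (Matrix.toLin' N)) + 2)
    (W : Submodule F (ι → F)) (hinv : ∀ w ∈ W, N *ᵥ w ∈ W) (hW : Nd Q W)
    (hodd : Odd (finrank F W)) : finrank F W % 4 = 1 := by
  have hNNv : ∀ v, N *ᵥ (N *ᵥ v) = 0 := fun v => by
    rw [Matrix.mulVec_mulVec, hNN, Matrix.zero_mulVec]
  have hX : ∀ v, (1 + N) *ᵥ v = v + N *ᵥ v := fun v => by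
    rw [Matrix.add_mulVec, Matrix.one_mulVec]
  have hBx : ∀ u v, pol Q (u + N *ᵥ u) (v + N *ᵥ v) = pol Q u v := by
    intro u v
    simp only [pol, QuadraticMap.polar]
    rw [← hX, ← hX, ← Matrix.mulVec_add, hisom, hisom, hisom]
  have hstar : ∀ u v, pol Q u (N *ᵥ v) + pol Q (N *ᵥ u) v + pol Q (N *ᵥ u) (N *ᵥ v) = 0 := by
    intro u v
    have h := hBx u v
    rw [pol_add_left hQ, pol_add_right hQ, pol_add_right hQ] at h
    linear_combination h
  have hNNpol : ∀ u v, pol Q (N *ᵥ u) (N *ᵥ v) = 0 := by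
    intro u v
    have h := hstar (N *ᵥ u) v
    rw [hNNv, pol_zero_left hQ, pol_zero_left hQ] at h
    simpa using h
  have hskew : ∀ u v, pol Q u (N *ᵥ v) = - pol Q (N *ᵥ u) v := by
    intro u v
    have h := hstar u v
    rw [hNNpol] at h
    linear_combination h
  have halt : ∀ u, pol Q u (N *ᵥ u) = 0 := by
    intro u
    have h := hskew u u
    rw [pol_comm (N *ᵥ u) u] at h
    have h3 : (2 : F) * pol Q u (N *ᵥ u) = 0 := by linear_combination h
    exact (mul_eq_zero.mp h3).resolve_left h2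
  have hLv : ∀ v, Matrix.toLin' N v = N *ᵥ v := fun v => Matrix.toLin'_apply N v
  -- `N(W) ≤ W ⊓ ker N`
  have hIW : W.map (Matrix.toLin' N) ≤ W := by
    rintro _ ⟨w, hw, rfl⟩
    rw [hLv]; exact hinv w hw
  have hIK : W.map (Matrix.toLin' N) ≤ W ⊓ LinearMap.ker (Matrix.toLin' N) := by
    refine le_inf hIW ?_
    rintro _ ⟨w, hw, rfl⟩
    rw [LinearMap.mem_ker, hLv, hLv, hNNv]
  -- rank-nullity on `W`
  have hcomap : finrank F ↥((W ⊓ LinearMap.ker (Matrix.toLin' N)).comap W.subtype) =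
      finrank F ↥(W ⊓ LinearMap.ker (Matrix.toLin' N)) :=
    (Submodule.comapSubtypeEquivOfLe inf_le_left).finrank_eq
  have hcomap_eq : (LinearMap.ker (Matrix.toLin' N)).comap W.subtype =
      (W ⊓ LinearMap.ker (Matrix.toLin' N)).comap W.subtype := by
    ext w
    simp only [Submodule.mem_comap, Submodule.mem_inf, Submodule.coe_subtype]
    exact ⟨fun h => ⟨w.2, h⟩, fun h => h.2⟩
  have hrn : finrank F ↥(W.map (Matrix.toLin' N)) +
      finrank F ↥(W ⊓ LinearMap.ker (Matrix.toLin' N)) = finrank F W := by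
    have h := LinearMap.finrank_range_add_finrank_ker ((Matrix.toLin' N).domRestrict W)
    rw [LinearMap.range_domRestrict, LinearMap.ker_domRestrict, hcomap_eq, hcomap] at h
    exact h
  -- the perp of `K = W ⊓ ker N` inside `W`
  have hB : ∀ a b : W, ((Cfsg.Agent.Lib.Helper37.OHyp.polB hQ).restrict W) a b =
      pol Q (a : ι → F) (b : ι → F) := fun a b => rfl
  have hBnd : ((Cfsg.Agent.Lib.Helper37.OHyp.polB hQ).restrict W).Nondegenerate := by
    constructor
    · intro a ha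
      by_contra ha0
      have ha0' : (a : ι → F) ≠ 0 := fun h => ha0 (Subtype.ext h)
      obtain ⟨-, ⟨y, hy, hay⟩⟩ := hW (a : ι → F) a.2 ha0'
      exact hay (ha ⟨y, hy⟩)
    · intro b hb
      by_contra hb0
      have hb0' : (b : ι → F) ≠ 0 := fun h => hb0 (Subtype.ext h)
      obtain ⟨⟨y, hy, hyb⟩, -⟩ := hW (b : ι → F) b.2 hb0'
      exact hyb (hb ⟨y, hy⟩)
  have hperp := LinearMap.BilinForm.finrank_orthogonal hBnd
    ((W ⊓ LinearMap.ker (Matrix.toLin' N)).comap W.subtype)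
  rw [hcomap] at hperp
  -- `K ⊓ im N` lies in that perp
  have hle : finrank F ↥((W ⊓ LinearMap.ker (Matrix.toLin' N)) ⊓
      LinearMap.range (Matrix.toLin' N)) ≤
      finrank F ↥(((Cfsg.Agent.Lib.Helper37.OHyp.polB hQ).restrict W).orthogonal
        ((W ⊓ LinearMap.ker (Matrix.toLin' N)).comap W.subtype)) := by
    rw [← Submodule.finrank_map_subtype_eq W
      (((Cfsg.Agent.Lib.Helper37.OHyp.polB hQ).restrict W).orthogonal
        ((W ⊓ LinearMap.ker (Matrix.toLin' N)).comap W.subtype))]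
    apply Submodule.finrank_mono
    rintro v ⟨⟨hvW, -⟩, ⟨z, rfl⟩⟩
    refine ⟨⟨Matrix.toLin' N z, hvW⟩, ?_, rfl⟩
    rw [SetLike.mem_coe, LinearMap.BilinForm.mem_orthogonal_iff]
    intro k hk
    rw [hB]
    have hk' : (k : ι → F) ∈ LinearMap.ker (Matrix.toLin' N) := hk.2
    rw [LinearMap.mem_ker, hLv] at hk'
    show pol Q (k : ι → F) (Matrix.toLin' N z) = 0
    rw [hLv, hskew, hk', pol_zero_left hQ, neg_zero]
  have hsupinf := Submodule.finrank_sup_add_finrank_inf_eq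
    (W ⊓ LinearMap.ker (Matrix.toLin' N)) (LinearMap.range (Matrix.toLin' N))
  have hsuple : finrank F ↥((W ⊓ LinearMap.ker (Matrix.toLin' N)) ⊔
      LinearMap.range (Matrix.toLin' N)) ≤ finrank F (LinearMap.ker (Matrix.toLin' N)) := by
    apply Submodule.finrank_mono
    refine sup_le inf_le_right ?_
    rintro _ ⟨z, rfl⟩
    rw [LinearMap.mem_ker, hLv, hLv, hNNv]
  have hIKle : finrank F ↥(W.map (Matrix.toLin' N)) ≤
      finrank F ↥(W ⊓ LinearMap.ker (Matrix.toLin' N)) := Submodule.finrank_mono hIK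
  -- evenness of `ρ = dim N(W)`
  obtain ⟨U₀, hU₀⟩ := Submodule.exists_isCompl (W ⊓ LinearMap.ker (Matrix.toLin' N))
  have hKU_inf : (W ⊓ LinearMap.ker (Matrix.toLin' N)) ⊓ (W ⊓ U₀) = ⊥ := by
    rw [eq_bot_iff, ← hU₀.inf_eq_bot]
    exact inf_le_inf le_rfl inf_le_right
  have hKU_sup : (W ⊓ LinearMap.ker (Matrix.toLin' N)) ⊔ (W ⊓ U₀) = W := by
    have h := sup_inf_assoc_of_le U₀ (inf_le_left : W ⊓ LinearMap.ker (Matrix.toLin' N) ≤ W)
    rw [hU₀.sup_eq_top, top_inf_eq] at h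
    rw [inf_comm W U₀]
    exact h.symm
  have hUdim := Submodule.finrank_sup_add_finrank_inf_eq
    (W ⊓ LinearMap.ker (Matrix.toLin' N)) (W ⊓ U₀)
  rw [hKU_inf, hKU_sup, finrank_bot] at hUdim
  have hA : ∀ v, ((Cfsg.Agent.Lib.Helper37.OHyp.polB hQ).compl₂ (Matrix.toLin' N)) v v = 0 := by
    intro v
    rw [LinearMap.compl₂_apply, Cfsg.Agent.Lib.Helper37.OHyp.polB_apply, hLv]
    exact halt v
  have hNg : Cfsg.Agent.Lib.Helper99.NgNd
      ((Cfsg.Agent.Lib.Helper37.OHyp.polB hQ).compl₂ (Matrix.toLin' N)) (W ⊓ U₀) := by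
    intro u hu hall
    have huW : u ∈ W := hu.1
    have hNu : N *ᵥ u = 0 := by
      by_contra hne
      obtain ⟨⟨y, hy, hyn⟩, -⟩ := hW (N *ᵥ u) (hinv u huW) hne
      apply hyn
      rw [← hKU_sup] at hy
      obtain ⟨k, hk, u', hu', rfl⟩ := Submodule.mem_sup.mp hy
      have hk' : N *ᵥ k = 0 := by
        have hk2 : k ∈ LinearMap.ker (Matrix.toLin' N) := hk.2
        rwa [LinearMap.mem_ker, hLv] at hk2
      have h1 := hall u' hu'
      rw [LinearMap.compl₂_apply, Cfsg.Agent.Lib.Helper37.OHyp.polB_apply, hLv] at h1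
      show pol Q (k + u') (N *ᵥ u) = 0
      rw [pol_add_left hQ, hskew k u, hk', pol_zero_left hQ, hskew u' u, pol_comm, h1]
      simp
    have huK : u ∈ (W ⊓ LinearMap.ker (Matrix.toLin' N)) ⊓ (W ⊓ U₀) :=
      ⟨⟨huW, show u ∈ LinearMap.ker (Matrix.toLin' N) by
        rw [LinearMap.mem_ker, hLv]; exact hNu⟩, hu⟩
    rw [hKU_inf] at huK
    exact (Submodule.mem_bot F).mp huK
  have heven := Cfsg.Agent.Lib.Helper99.ng_even
    ((Cfsg.Agent.Lib.Helper37.OHyp.polB hQ).compl₂ (Matrix.toLin' N)) hA _ (W ⊓ U₀) hNg rfl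
  obtain ⟨t, ht⟩ := heven
  obtain ⟨c, hc⟩ := hodd
  omega

end core

section element

variable (F : Type u) [Field F] (d h : ℕ)

/-- the nilpotent matrix `n₀` with `n₀ e_{i+h} = e_i` for `i < h` -/
def nz : Matrix (Fin d) (Fin d) F :=
  Matrix.of fun i j => if i.val < h ∧ j.val = i.val + h then 1 else 0

theorem nz_mul_nz : nz F d h * nz F d h = 0 := by
  ext i k
  rw [Matrix.mul_apply, Matrix.zero_apply]
  apply Finset.sum_eq_zero
  intro j _
  simp only [nz, Matrix.of_apply]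
  by_cases h1 : i.val < h ∧ j.val = i.val + h
  · have h3 : ¬ (j.val < h ∧ k.val = j.val + h) := by omega
    rw [if_neg h3, mul_zero]
  · rw [if_neg h1, zero_mul]

theorem nzT_mul_nzT : (nz F d h)ᵀ * (nz F d h)ᵀ = 0 := by
  rw [← Matrix.transpose_mul, nz_mul_nz, Matrix.transpose_zero]

/-- the element `x` -/
def xmat : Matrix (Fin d ⊕ Fin d) (Fin d ⊕ Fin d) F :=
  Matrix.fromBlocks (1 + nz F d h) 0 0 (1 - (nz F d h)ᵀ)

/-- its inverse -/
def xinv : Matrix (Fin d ⊕ Fin d) (Fin d ⊕ Fin d) F :=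
  Matrix.fromBlocks (1 - nz F d h) 0 0 (1 + (nz F d h)ᵀ)

/-- `x - 1` -/
def nmat : Matrix (Fin d ⊕ Fin d) (Fin d ⊕ Fin d) F :=
  Matrix.fromBlocks (nz F d h) 0 0 (-(nz F d h)ᵀ)

theorem xmat_eq : xmat F d h = 1 + nmat F d h := by
  rw [xmat, nmat, ← Matrix.fromBlocks_one, Matrix.fromBlocks_add]
  simp [sub_eq_add_neg]

theorem nmat_sq : nmat F d h * nmat F d h = 0 := by
  rw [nmat, Matrix.fromBlocks_multiply]
  simp [nz_mul_nz, nzT_mul_nzT]

theorem one_add_mul_one_sub : (1 + nz F d h) * (1 - nz F d h) = 1 := by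
  have : (1 + nz F d h) * (1 - nz F d h) = 1 - nz F d h * nz F d h := by noncomm_ring
  rw [this, nz_mul_nz, sub_zero]

theorem one_sub_mul_one_add : (1 - nz F d h) * (1 + nz F d h) = 1 := by
  have : (1 - nz F d h) * (1 + nz F d h) = 1 - nz F d h * nz F d h := by noncomm_ring
  rw [this, nz_mul_nz, sub_zero]

theorem one_addT_mul_one_subT : (1 + (nz F d h)ᵀ) * (1 - (nz F d h)ᵀ) = 1 := by
  have : (1 + (nz F d h)ᵀ) * (1 - (nz F d h)ᵀ) = 1 - (nz F d h)ᵀ * (nz F d h)ᵀ := by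
    noncomm_ring
  rw [this, nzT_mul_nzT, sub_zero]

theorem one_subT_mul_one_addT : (1 - (nz F d h)ᵀ) * (1 + (nz F d h)ᵀ) = 1 := by
  have : (1 - (nz F d h)ᵀ) * (1 + (nz F d h)ᵀ) = 1 - (nz F d h)ᵀ * (nz F d h)ᵀ := by
    noncomm_ring
  rw [this, nzT_mul_nzT, sub_zero]

theorem xmat_mul_xinv : xmat F d h * xinv F d h = 1 := by
  rw [xmat, xinv, Matrix.fromBlocks_multiply]
  simp [one_add_mul_one_sub, one_subT_mul_one_addT]

theorem xinv_mul_xmat : xinv F d h * xmat F d h = 1 := by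
  rw [xmat, xinv, Matrix.fromBlocks_multiply]
  simp [one_sub_mul_one_add, one_addT_mul_one_subT]

theorem xmat_isom (v : Fin d ⊕ Fin d → F) :
    Cfsg.quadFormPlus d F (xmat F d h *ᵥ v) = Cfsg.quadFormPlus d F v := by
  obtain ⟨a, b, rfl⟩ : ∃ a b, v = Sum.elim a b :=
    ⟨v ∘ Sum.inl, v ∘ Sum.inr, (Sum.elim_comp_inl_inr v).symm⟩
  rw [xmat, Matrix.fromBlocks_mulVec]
  simp only [Cfsg.quadFormPlus, Sum.elim_inl, Sum.elim_inr, Matrix.zero_mulVec, add_zero,
    zero_add]
  change ((1 + nz F d h) *ᵥ a) ⬝ᵥ ((1 - (nz F d h)ᵀ) *ᵥ b) = a ⬝ᵥ b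
  have ht : (1 - (nz F d h)ᵀ) = (1 - nz F d h)ᵀ := by
    rw [Matrix.transpose_sub, Matrix.transpose_one]
  rw [ht, Matrix.dotProduct_mulVec, Matrix.vecMul_transpose, Matrix.mulVec_mulVec,
    one_sub_mul_one_add, Matrix.one_mulVec]

theorem one_add_pow {ι : Type} [Fintype ι] [DecidableEq ι] (N : Matrix ι ι F) (hNN : N * N = 0)
    (k : ℕ) : (1 + N) ^ k = 1 + (k : F) • N := by
  induction k with
  | zero => simp
  | succ k ih =>
    rw [pow_succ, ih, mul_add, mul_one, add_mul, one_mul, Matrix.smul_mul, hNN, smul_zero,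
      add_zero, Nat.cast_succ, add_smul, one_smul]
    abel

/-- kernel facts -/
theorem nmat_ker_inl (v : Fin d ⊕ Fin d → F) (hv : nmat F d h *ᵥ v = 0) (j : Fin d)
    (h1 : h ≤ j.val) (h3 : j.val < 2 * h) : v (Sum.inl j) = 0 := by
  have h4 := congrFun hv (Sum.inl ⟨j.val - h, by omega⟩)
  simp only [Matrix.mulVec, dotProduct, Fintype.sum_sum_type, nmat, Matrix.fromBlocks_apply₁₁,
    Matrix.fromBlocks_apply₁₂, Matrix.zero_apply, zero_mul, Finset.sum_const_zero, add_zero,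
    Pi.zero_apply, nz, Matrix.of_apply] at h4
  rw [Finset.sum_eq_single j] at h4
  · have hc : (j.val - h < h ∧ j.val = j.val - h + h) := by omega
    rw [if_pos hc, one_mul] at h4
    exact h4
  · intro j' _ hj'
    have hc : ¬ (j.val - h < h ∧ j'.val = j.val - h + h) := by
      rintro ⟨-, h5⟩
      exact hj' (Fin.ext (by omega))
    rw [if_neg hc, zero_mul]
  · intro h'; exact absurd (Finset.mem_univ _) h'

theorem nmat_ker_inr (v : Fin d ⊕ Fin d → F) (hv : nmat F d h *ᵥ v = 0) (i : Fin d)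
    (h1 : i.val < h) (hd : i.val + h < d) : v (Sum.inr i) = 0 := by
  have h4 := congrFun hv (Sum.inr ⟨i.val + h, hd⟩)
  simp only [Matrix.mulVec, dotProduct, Fintype.sum_sum_type, nmat, Matrix.fromBlocks_apply₂₁,
    Matrix.fromBlocks_apply₂₂, Matrix.zero_apply, zero_mul, Finset.sum_const_zero, zero_add,
    Pi.zero_apply, nz, Matrix.of_apply, Matrix.neg_apply, Matrix.transpose_apply] at h4
  rw [Finset.sum_eq_single i] at h4
  · have hc : (i.val < h ∧ i.val + h = i.val + h) := ⟨h1, rfl⟩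
    rw [if_pos hc] at h4
    simpa using h4
  · intro i' _ hi'
    have hc : ¬ (i'.val < h ∧ i.val + h = i'.val + h) := by
      rintro ⟨-, h5⟩
      exact hi' (Fin.ext (by omega))
    rw [if_neg hc]
    simp
  · intro h'; exact absurd (Finset.mem_univ _) h'

theorem nmat_ker_le (hd : d = 2 * h + 1) :
    finrank F (LinearMap.ker (Matrix.toLin' (nmat F d h))) ≤ d + 1 := by
  let g : Fin (h + 1) ⊕ Fin (h + 1) → Fin d ⊕ Fin d :=
    Sum.map (fun a => if a.val < h then (⟨a.val, by omega⟩ : Fin d) else ⟨2 * h, by omega⟩)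
      (fun b => (⟨b.val + h, by omega⟩ : Fin d))
  have hinj : Function.Injective ((LinearMap.funLeft F F g).comp
      (LinearMap.ker (Matrix.toLin' (nmat F d h))).subtype) := by
    rw [← LinearMap.ker_eq_bot, LinearMap.ker_eq_bot']
    rintro ⟨v, hv⟩ hφ
    apply Subtype.ext
    have hφ' : ∀ s, v (g s) = 0 := fun s => by
      have := congrFun hφ s
      simpa [LinearMap.funLeft_apply] using this
    rw [LinearMap.mem_ker, Matrix.toLin'_apply] at hv
    show v = 0
    funext s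
    rcases s with j | i
    · by_cases h1 : j.val < h
      · have h5 := hφ' (Sum.inl ⟨j.val, by omega⟩)
        simpa [g, h1] using h5
      · by_cases h3 : j.val < 2 * h
        · exact nmat_ker_inl F d h v hv j (by omega) h3
        · have h5 := hφ' (Sum.inl ⟨h, by omega⟩)
          have hj : j = ⟨2 * h, by omega⟩ := Fin.ext (by have := j.2; simp only; omega)
          rw [hj]
          simpa [g] using h5
    · by_cases h1 : i.val < h
      · exact nmat_ker_inr F d h v hv i h1 (by omega)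
      · have h5 := hφ' (Sum.inr ⟨i.val - h, by have := i.2; omega⟩)
        have hi : (⟨i.val - h + h, by have := i.2; omega⟩ : Fin d) = i := Fin.ext (by simp only; omega)
        simp only [g, Sum.map_inr] at h5
        rw [hi] at h5
        exact h5
  have hle := LinearMap.finrank_le_finrank_of_injective hinj
  rw [Module.finrank_fintype_fun_eq_card] at hle
  simp only [Fintype.card_sum, Fintype.card_fin] at hle
  omega

end element

theorem pkgUni3 : Cfsg.Agent.Lib.Helper70.OPar.PkgUni3.{u} := by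
  intro F _ _ p _ _ hp2 d m hd4 hmodd hmd hdodd hm3
  classical
  obtain ⟨h, hh⟩ := hdodd
  have hpp : p.Prime := Fact.out
  have h2 : (2 : F) ≠ 0 := by
    intro h0
    have h1 : ((2 : ℕ) : F) = 0 := by exact_mod_cast h0
    rw [CharP.cast_eq_zero_iff F p] at h1
    exact hp2 ((Nat.prime_dvd_prime_iff_eq hpp Nat.prime_two).mp h1)
  have hQ : IsNondegenerateQuadraticForm (Cfsg.quadFormPlus d F) :=
    Cfsg.Agent.Lib.Helper12.OHyp.nondeg_quadFormPlus d
  let x : GL (Fin d ⊕ Fin d) F :=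
    ⟨xmat F d h, xinv F d h, xmat_mul_xinv F d h, xinv_mul_xmat F d h⟩
  have hxiso : x ∈ Cfsg.isometryGroup F (Cfsg.quadFormPlus d F) := by
    rw [Cfsg.Agent.Lib.Helper14.mem_isometryGroup_iff]
    intro v
    exact xmat_isom F d h v
  have hxp : x ^ p = 1 := by
    apply Units.ext
    rw [Units.val_pow_eq_pow_val, Units.val_one]
    show xmat F d h ^ p = 1
    rw [xmat_eq, one_add_pow F (nmat F d h) (nmat_sq F d h), CharP.cast_eq_zero F p, zero_smul,
      add_zero]
  have hx1 : x ≠ 1 := by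
    intro h1
    have h3 : xmat F d h = 1 := congrArg (fun y : GL (Fin d ⊕ Fin d) F =>
      (y : Matrix (Fin d ⊕ Fin d) (Fin d ⊕ Fin d) F)) h1
    have h4 := congrFun (congrFun h3 (Sum.inl ⟨0, by omega⟩)) (Sum.inl ⟨h, by omega⟩)
    have hne : (⟨0, by omega⟩ : Fin d) ≠ ⟨h, by omega⟩ := by
      intro h5
      have := congrArg Fin.val h5
      simp only at this
      omega
    rw [xmat, Matrix.fromBlocks_apply₁₁, Matrix.add_apply, Matrix.one_apply_ne hne,
      Matrix.one_apply_ne (by simpa using hne)] at h4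
    simp only [nz, Matrix.of_apply, zero_add] at h4
    rw [if_pos ⟨by omega, trivial⟩] at h4
    exact one_ne_zero h4
  have hord : orderOf x = p := orderOf_eq_prime hxp hx1
  have hΩ : x ∈ Cfsg.Geo.omegaGL (Cfsg.quadFormPlus d F) :=
    Cfsg.Agent.Lib.Helper97.OHyp.pkgOddOmega F (Fin d ⊕ Fin d) _ hQ h2 x hxiso
      (by rw [hord]; exact hpp.odd_of_ne_two hp2)
  refine ⟨x, hΩ, hxp, hx1, ?_⟩
  intro W hWm hWnd hWinv
  have hinvN : ∀ w ∈ W, nmat F d h *ᵥ w ∈ W := by
    intro w hw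
    have h1 : xmat F d h *ᵥ w ∈ W := (Cfsg.Agent.Lib.Helper10.OHyp.inv_iff _ W).mp hWinv w hw
    have h3 : nmat F d h *ᵥ w = xmat F d h *ᵥ w - w := by
      rw [xmat_eq, Matrix.add_mulVec, Matrix.one_mulVec]
      abel
    rw [h3]
    exact W.sub_mem h1 hw
  have hker : finrank F (LinearMap.ker (Matrix.toLin' (nmat F d h))) ≤
      finrank F (LinearMap.range (Matrix.toLin' (nmat F d h))) + 2 := by
    have hk := nmat_ker_le F d h hh
    have hrn := LinearMap.finrank_range_add_finrank_ker (Matrix.toLin' (nmat F d h))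
    rw [Module.finrank_fintype_fun_eq_card] at hrn
    simp only [Fintype.card_sum, Fintype.card_fin] at hrn
    omega
  have hcore := uni3_core hQ h2 (nmat F d h) (nmat_sq F d h)
    (fun v => by rw [← xmat_eq]; exact xmat_isom F d h v) hker W hinvN hWnd
    (by rw [hWm]; exact hmodd)
  rw [hWm] at hcore
  omega

end Cfsg.Agent.Lib.Helper24.OPar
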